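import Mathlib
import Cfsg.Agent.Lib.Helper55.OOG.Defs

/-!
# OOG (S2413) package [CHAR]
-/

set_option autoImplicit false

namespace Cfsg.Agent.Lib.Helper10.OOG

open Cfsg.Agent.Lib.Helper55.OOG

universe u

theorem pkgChar : PkgChar.{u} := by
  intro F _ _
  haveI : CharP F (ringChar F) := ringChar.charP F
  obtain ⟨n, hp, hcard⟩ := FiniteField.card F (ringChar F)
  refine ⟨ringChar F, CharP.cast_eq_zero F (ringChar F), ?_⟩
  rw [hcard]
  have hdvd : ringChar F ∣ ringChar F ^ (n : ℕ) := dvd_pow_self _ n.ne_zero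
  have hpos : 0 < ringChar F ^ (n : ℕ) := pow_pos hp.pos _
  obtain ⟨k, hk⟩ : ∃ k, ringChar F ^ (n : ℕ) = k + 1 := ⟨ringChar F ^ (n : ℕ) - 1, by omega⟩
  rw [hk] at hdvd ⊢
  rw [Nat.add_sub_cancel]
  exact Nat.Coprime.coprime_dvd_left hdvd (Nat.coprime_self_add_left.mpr (Nat.coprime_one_left k))

end Cfsg.Agent.Lib.Helper10.OOG
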