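import Mathlib
import Cfsg.Agent.Lib.Helper55.OOG.Defs

/-!
# OOG (S2413) package [COP]
-/

set_option autoImplicit false

namespace Cfsg.Agent.Lib.Helper10.OOG

open Cfsg.Agent.Lib.Helper55.OOG

universe u

theorem pkgCop : PkgCop.{u} := by
  intro G _ s h A B hAB hcomm hs hh
  have hc : Commute s h := hcomm
  have hbez : (1 : ℤ) = (A : ℤ) * Nat.gcdA A B + (B : ℤ) * Nat.gcdB A B := by
    have h0 := Nat.gcd_eq_gcd_ab A B
    rw [Nat.Coprime.gcd_eq_one hAB] at h0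
    exact_mod_cast h0
  have h1 : (s * h) ^ B = s ^ B := by rw [hc.mul_pow, hh, mul_one]
  have h2 : (s * h) ^ A = h ^ A := by rw [hc.mul_pow, hs, one_mul]
  constructor
  · rw [Subgroup.mem_zpowers_iff]
    refine ⟨(B : ℤ) * Nat.gcdB A B, ?_⟩
    rw [zpow_mul, zpow_natCast, h1]
    have h3 : s = s ^ ((A : ℤ) * Nat.gcdA A B + (B : ℤ) * Nat.gcdB A B) := by
      rw [← hbez, zpow_one]
    rw [zpow_add, zpow_mul, zpow_mul, zpow_natCast, zpow_natCast, hs, one_zpow, one_mul] at h3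
    exact h3.symm
  · rw [Subgroup.mem_zpowers_iff]
    refine ⟨(A : ℤ) * Nat.gcdA A B, ?_⟩
    rw [zpow_mul, zpow_natCast, h2]
    have h3 : h = h ^ ((A : ℤ) * Nat.gcdA A B + (B : ℤ) * Nat.gcdB A B) := by
      rw [← hbez, zpow_one]
    rw [zpow_add, zpow_mul, zpow_mul, zpow_natCast, zpow_natCast, hh, one_zpow, mul_one] at h3
    exact h3.symm

end Cfsg.Agent.Lib.Helper10.OOG
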