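import Mathlib
import Cfsg.Agent.Lib.Helper55.OOG.Defs

/-!
# OOG (S2413) package [POW]
-/

set_option autoImplicit false

namespace Cfsg.Agent.Lib.Helper10.OOG

open Cfsg.Agent.Lib.Helper55.OOG

universe u

theorem pkgPow_of (hAlg : PkgAlg.{u}) : PkgPow.{u} := by
  intro m F _ u w σ hu huw hσ k
  obtain ⟨ha, hb, -⟩ := hAlg m F u hu
  induction k with
  | zero => simpa using ha
  | succ k ih =>
    have hB : B u ((k : F) • w) = 0 := by rw [B_smul_right, huw, mul_zero]
    have h0 := hb ((k : F) • w) w (σ ^ k) σ hB huw ih hσ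
    rw [pow_succ, Nat.cast_succ, add_smul, one_smul]
    exact h0

end Cfsg.Agent.Lib.Helper10.OOG
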