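import Mathlib
import Cfsg.Agent.Lib.Helper55.OOG.Defs

/-!
# OOG (S2413) package [SPAN]
-/

set_option autoImplicit false

namespace Cfsg.Agent.Lib.Helper10.OOG

open Cfsg.Agent.Lib.Helper55.OOG

universe u

open Polynomial in
/-- In a finite field of odd order every element is a sum of two squares. -/
theorem sq_add_sq_of_odd {K : Type*} [Field K] [Fintype K] (ho : Odd (Fintype.card K)) (x : K) :
    ∃ a b : K, a ^ 2 + b ^ 2 = x := by
  obtain ⟨a, b, hab⟩ := FiniteField.exists_root_sum_quadratic (R := K) (f := X ^ 2)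
    (g := X ^ 2 - C x) (degree_X_pow 2) (degree_X_pow_sub_C (by decide) _) (Nat.odd_iff.1 ho)
  refine ⟨a, b, ?_⟩
  simp only [eval_pow, eval_X, eval_sub, eval_C] at hab
  linear_combination hab

theorem pkgSpan : PkgSpan.{u} := by
  intro F _ _ hodd
  obtain ⟨g, hg⟩ := IsCyclic.exists_generator (α := Fˣ)
  refine ⟨(g : F), g.ne_zero, ?_⟩
  intro A h1 hk
  have hpow : ∀ j : ℕ, ((g : F) * (g : F)) ^ j ∈ A := by
    intro j
    induction j with
    | zero => simpa using h1
    | succ j ih =>
      rw [pow_succ']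
      exact hk _ ih
  have hsq : ∀ y : F, y ^ 2 ∈ A := by
    intro y
    by_cases hy : y = 0
    · rw [hy]
      simp
    · obtain ⟨j, hj⟩ := mem_powers_iff_mem_zpowers.mpr (hg (Units.mk0 y hy))
      have hy' : y = (g : F) ^ j := by
        have h0 := congrArg (fun z : Fˣ => (z : F)) hj
        simpa using h0.symm
      rw [hy', ← pow_mul, mul_comm j 2, pow_mul, sq]
      exact hpow j
  rw [eq_top_iff]
  intro x _
  obtain ⟨a, b, hab⟩ := sq_add_sq_of_odd hodd x
  rw [← hab]
  exact A.add_mem (hsq a) (hsq b)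

end Cfsg.Agent.Lib.Helper10.OOG
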